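import Mathlib

/-!
# Fixed point free isometries of symplectic spaces

`V` a symplectic `𝔽_p`-space of dimension `2n`, `T` an isometry with `T ^ h = 1`, `h` prime to `p`,
with all the powers `T ^ k`, `h ∤ k`, fixed point free. Then `p ^ n ≡ ± 1` modulo `h`.
-/

set_option autoImplicit false
set_option linter.unusedSectionVars false
set_option linter.style.haveILetI false
set_option linter.unusedTactic false

namespace Cfsg.Agent.Lib.ExtraFix.Linear

open Polynomial Module

universe u

variable {p : ℕ} [Fact p.Prime] {V : Type u} [AddCommGroup V] [Module (ZMod p) V] [Finite V]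

/-- `T` has order dividing `h` prime to `p`, and acts semiregularly. -/
structure Reg (T : Module.End (ZMod p) V) (h : ℕ) : Prop where
  pos : 0 < h
  cop : h.Coprime p
  pow_eq : T ^ h = 1
  fpf : ∀ k, ¬ h ∣ k → ∀ v, (T ^ k) v = v → v = 0

theorem Reg.dvd {T : Module.End (ZMod p) V} {h : ℕ} (hr : Reg T h) [Nontrivial V] {k : ℕ}
    (hk : T ^ k = 1) : h ∣ k := by
  by_contra hn
  obtain ⟨v, hv⟩ := exists_ne (0 : V)
  exact hv (hr.fpf k hn v (by rw [hk]; rfl))

/-- No proper invariant subspaces. -/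
def Irr (T : Module.End (ZMod p) V) : Prop :=
  ∀ W : Submodule (ZMod p) V, (∀ v ∈ W, T v ∈ W) → W = ⊥ ∨ W = ⊤

theorem aeval_comm (T : Module.End (ZMod p) V) (a : (ZMod p)[X]) (v : V) :
    T (aeval T a v) = aeval T a (T v) := by
  have : Commute T (aeval T a) := by
    rw [Polynomial.aeval_eq_sum_range]
    exact Commute.sum_right _ _ _ fun i _ => ((Commute.refl T).pow_right i).smul_right _
  exact LinearMap.congr_fun this.eq v

theorem minpoly_irr {T : Module.End (ZMod p) V} (hT : Irr T) [Nontrivial V] :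
    Irreducible (minpoly (ZMod p) T) := by
  haveI : Module.Finite (ZMod p) V := Module.Finite.of_finite
  have hint : IsIntegral (ZMod p) T := Algebra.IsIntegral.isIntegral T
  have hmon := minpoly.monic hint
  have hne : minpoly (ZMod p) T ≠ 0 := hmon.ne_zero
  rw [irreducible_iff]
  refine ⟨minpoly.not_isUnit _ _, fun a b hab => ?_⟩
  have h0 : aeval T a * aeval T b = 0 := by
    rw [← map_mul, ← hab, minpoly.aeval]
  have key : ∀ c d : (ZMod p)[X], minpoly (ZMod p) T = c * d → aeval T c = 0 → IsUnit d := by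
    intro c d hcd hc
    obtain ⟨e, he⟩ := minpoly.dvd (ZMod p) T hc
    have : minpoly (ZMod p) T * 1 = minpoly (ZMod p) T * (e * d) := by
      rw [mul_one]
      conv_lhs => rw [hcd, he]
      ring
    have := mul_left_cancel₀ hne this
    exact IsUnit.of_mul_eq_one _ (by rw [mul_comm]; exact this.symm)
  have hinv : ∀ v ∈ LinearMap.ker (aeval T a), T v ∈ LinearMap.ker (aeval T a) := by
    intro v hv
    rw [LinearMap.mem_ker] at hv ⊢
    rw [← aeval_comm, hv, map_zero]
  rcases hT _ hinv with hk | hk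
  · left
    refine key b a (by rw [hab, mul_comm]) ?_
    have hinj : Function.Injective (aeval T a) := LinearMap.ker_eq_bot.1 hk
    ext v
    apply hinj
    have := LinearMap.congr_fun h0 v
    simpa using this
  · right
    refine key a b hab ?_
    exact LinearMap.ker_eq_top.1 hk

section Field

variable (T : Module.End (ZMod p) V) [Fact (Irreducible (minpoly (ZMod p) T))]

/-- The field generated by `T`. -/
noncomputable abbrev LL : Type := AdjoinRoot (minpoly (ZMod p) T)

/-- Its action. -/
noncomputable def phi : LL T →ₐ[ZMod p] Module.End (ZMod p) V :=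
  Ideal.Quotient.liftₐ (Ideal.span {minpoly (ZMod p) T}) (aeval T) (by
    intro a ha
    obtain ⟨c, rfl⟩ := Ideal.mem_span_singleton.1 ha
    simp)

@[simp] theorem phi_mk (a : (ZMod p)[X]) : phi T (AdjoinRoot.mk _ a) = aeval T a := rfl

@[simp] theorem phi_root : phi T (AdjoinRoot.root _) = T := by
  rw [AdjoinRoot.root, phi_mk, aeval_X]

theorem phi_inj [Nontrivial V] : Function.Injective (phi T) := (phi T).toRingHom.injective

theorem aeval_phi (a : (ZMod p)[X]) (x : LL T) : phi T (aeval x a) = aeval (phi T x) a :=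
  (Polynomial.aeval_algHom_apply (phi T) x a).symm

theorem phi_comm (x : LL T) (v : V) : T (phi T x v) = phi T x (T v) := by
  obtain ⟨a, rfl⟩ := AdjoinRoot.mk_surjective x
  rw [← AdjoinRoot.aeval_eq, aeval_phi, phi_root]
  exact aeval_comm T a v

/-- Evaluation at `w`. -/
noncomputable def evv (w : V) : LL T →ₗ[ZMod p] V where
  toFun x := phi T x w
  map_add' x y := by simp
  map_smul' c x := by simp

theorem evv_bij (hT : Irr T) {w : V} (hw : w ≠ 0) : Function.Bijective (evv T w) := by
  constructor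
  · rw [← LinearMap.ker_eq_bot, LinearMap.ker_eq_bot']
    intro x hx
    by_contra hne
    apply hw
    have h1 : phi T (x⁻¹ * x) w = 0 := by
      rw [map_mul]
      exact congrArg (phi T x⁻¹) hx |>.trans (map_zero _)
    rw [inv_mul_cancel₀ hne, map_one] at h1
    exact h1
  · rw [← LinearMap.range_eq_top]
    rcases hT (LinearMap.range (evv T w)) (by
      rintro _ ⟨x, rfl⟩
      refine ⟨AdjoinRoot.root _ * x, ?_⟩
      simp [evv]) with h | h
    · exfalso
      apply hw
      have : evv T w 1 ∈ LinearMap.range (evv T w) := ⟨1, rfl⟩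
      rw [h, Submodule.mem_bot] at this
      simpa [evv] using this
    · exact h

/-- The field and the space are isomorphic. -/
noncomputable def evvEquiv (hT : Irr T) {w : V} (hw : w ≠ 0) : LL T ≃ₗ[ZMod p] V :=
  LinearEquiv.ofBijective (evv T w) (evv_bij T hT hw)

theorem finite_LL (hT : Irr T) [Nontrivial V] : Finite (LL T) := by
  obtain ⟨w, hw⟩ := exists_ne (0 : V)
  exact Finite.of_equiv V (evvEquiv T hT hw).symm.toEquiv

theorem finrank_LL (hT : Irr T) [Nontrivial V] : finrank (ZMod p) (LL T) = finrank (ZMod p) V := by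
  obtain ⟨w, hw⟩ := exists_ne (0 : V)
  exact (evvEquiv T hT hw).finrank_eq

theorem root_pow_eq_one_iff [Nontrivial V] (k : ℕ) : (AdjoinRoot.root (minpoly (ZMod p) T)) ^ k = 1 ↔ T ^ k = 1 := by
  constructor
  · intro h
    have := congrArg (phi T) h
    simpa using this
  · intro h
    apply phi_inj T
    simp [h]

end Field

/-- Main point without a form: `h ∣ |V| - 1`. -/
theorem dvd_of_irr {T : Module.End (ZMod p) V} {h : ℕ} (hT : Irr T) (hr : Reg T h) [Nontrivial V] :
    h ∣ p ^ finrank (ZMod p) V - 1 := by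
  haveI : Fact (Irreducible (minpoly (ZMod p) T)) := ⟨minpoly_irr hT⟩
  haveI := finite_LL T hT
  have hcard : Nat.card (LL T) = p ^ finrank (ZMod p) V := by
    rw [← finrank_LL T hT, Module.natCard_eq_pow_finrank (K := ZMod p), Nat.card_zmod]
  have hroot : AdjoinRoot.root (minpoly (ZMod p) T) ≠ 0 := by
    intro h0
    have h1 : (AdjoinRoot.root (minpoly (ZMod p) T)) ^ h = 1 :=
      (root_pow_eq_one_iff T h).2 hr.pow_eq
    rw [h0, zero_pow hr.pos.ne'] at h1
    exact zero_ne_one h1
  apply hr.dvd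
  apply (root_pow_eq_one_iff T _).1
  haveI := Fintype.ofFinite (LL T)
  have := FiniteField.pow_card_sub_one_eq_one _ hroot
  rwa [← Nat.card_eq_fintype_card, hcard] at this


section Form

variable (B : LinearMap.BilinForm (ZMod p) V)

/-- Symplectic spaces, elementwise. -/
structure Symp : Prop where
  alt : ∀ v, B v v = 0
  nd : ∀ v, (∀ w, B v w = 0) → v = 0

variable {B}

theorem Symp.neg (hB : Symp B) (u v : V) : B u v = - B v u := by
  have := hB.alt (u + v)
  simp only [map_add, LinearMap.add_apply, hB.alt, zero_add, add_zero] at this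
  exact eq_neg_of_add_eq_zero_right this

theorem Symp.isRefl (hB : Symp B) : B.IsRefl := by
  intro u v h
  rw [hB.neg, h, neg_zero]

theorem Symp.nondeg (hB : Symp B) : B.Nondegenerate := by
  refine ⟨hB.nd, fun y hy => hB.nd y fun w => ?_⟩
  rw [hB.neg, hy, neg_zero]

theorem adj_aeval {T T' : Module.End (ZMod p) V} (hadj : ∀ u v, B (T u) v = B u (T' v))
    (a : (ZMod p)[X]) (u v : V) : B (aeval T a u) v = B u (aeval T' a v) := by
  induction a using Polynomial.induction_on' with
  | add a b ha hb => simp [ha, hb]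
  | monomial n c =>
    simp only [aeval_monomial, Module.End.mul_apply, Module.algebraMap_end_apply, map_smul,
      LinearMap.smul_apply]
    congr 1
    induction n generalizing u v with
    | zero => simp
    | succ n ih =>
      rw [pow_succ, pow_succ', Module.End.mul_apply, Module.End.mul_apply, ih, hadj]

/-- The nondegenerate irreducible case. -/
theorem exists_of_nondeg {T : Module.End (ZMod p) V} {h : ℕ} (hT : Irr T) (hr : Reg T h)
    [Nontrivial V] (hB : Symp B) (hiso : ∀ u v, B (T u) (T v) = B u v) (h2 : 2 < h) :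
    ∃ d, finrank (ZMod p) V = 2 * d ∧ h ∣ p ^ d + 1 := by
  haveI : Fact (Irreducible (minpoly (ZMod p) T)) := ⟨minpoly_irr hT⟩
  haveI := finite_LL T hT
  set f := minpoly (ZMod p) T with hf
  set r := AdjoinRoot.root f with hr_def
  have hTT : T ^ (h - 1) * T = 1 := by
    rw [← pow_succ, Nat.sub_add_cancel hr.pos, hr.pow_eq]
  have hTT' : T * T ^ (h - 1) = 1 := by
    rw [← pow_succ', Nat.sub_add_cancel hr.pos, hr.pow_eq]
  have hadj : ∀ u v, B (T u) v = B u ((T ^ (h - 1)) v) := by
    intro u v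
    have : v = T ((T ^ (h - 1)) v) := by
      rw [← Module.End.mul_apply, hTT']; rfl
    conv_lhs => rw [this]
    exact hiso _ _
  have hf0 : aeval (T ^ (h - 1)) f = 0 := by
    ext v
    refine hB.nd _ fun w => ?_
    rw [hB.neg, ← adj_aeval hadj]
    simp [hf]
  have hrf : aeval (r ^ (h - 1)) f = 0 := by
    apply phi_inj T
    rw [aeval_phi, map_pow, map_zero, hr_def, phi_root]
    exact hf0
  let σ : LL T →ₐ[ZMod p] LL T :=
    AdjoinRoot.liftAlgHom f (Algebra.ofId _ _) (r ^ (h - 1)) (by
      rwa [aeval_def] at hrf)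
  have hσ : σ r = r ^ (h - 1) := AdjoinRoot.liftAlgHom_root _ _ _ _
  have hrh : r ^ h = 1 := (root_pow_eq_one_iff T h).2 hr.pow_eq
  haveI := Fintype.ofFinite (LL T)
  obtain ⟨⟨i, hi⟩, hi2⟩ := (FiniteField.bijective_frobeniusAlgHom_pow (ZMod p) (LL T)).2 σ
  have hfrob : ∀ (j : ℕ) (x : LL T), (FiniteField.frobeniusAlgHom (ZMod p) (LL T) ^ j) x
      = x ^ (p ^ j) := by
    intro j x
    rw [AlgHom.coe_pow, FiniteField.coe_frobeniusAlgHom, pow_iterate]
    simp [ZMod.card]
  have hσi : ∀ x, σ x = x ^ (p ^ i) := by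
    intro x
    rw [← hi2]
    exact hfrob i x
  have hpow : r ^ (p ^ i + 1) = 1 := by
    have h1 := hσi r
    rw [hσ] at h1
    rw [pow_succ, ← h1, ← pow_succ, Nat.sub_add_cancel hr.pos, hrh]
  have hdvd : h ∣ p ^ i + 1 := hr.dvd ((root_pow_eq_one_iff T _).1 hpow)
  have hi0 : i ≠ 0 := by
    rintro rfl
    have := Nat.le_of_dvd (by norm_num) hdvd
    simp at this
    omega
  have hσσ : σ * σ = 1 := by
    apply AdjoinRoot.algHom_ext
    change σ (σ r) = r
    rw [hσ, map_pow, hσ, ← pow_mul]
    obtain ⟨m, hm⟩ : ∃ m, h = m + 1 := ⟨h - 1, by have := hr.pos; omega⟩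
    have : (h - 1) * (h - 1) = h * (m - 1) + 1 := by
      subst hm
      rcases m with _ | m
      · omega
      · simp only [Nat.add_sub_cancel]
        ring
    rw [this, pow_add, pow_mul, hrh, one_pow, one_mul, pow_one]
  have hD : finrank (ZMod p) (LL T) ∣ i * 2 := by
    rw [← FiniteField.orderOf_frobeniusAlgHom (ZMod p) (LL T)]
    apply orderOf_dvd_of_pow_eq_one
    rw [pow_mul, show (FiniteField.frobeniusAlgHom (ZMod p) (LL T) ^ i) = σ from hi2, pow_two, hσσ]
  have h2i : i * 2 = finrank (ZMod p) (LL T) := by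
    obtain ⟨c, hc⟩ := hD
    have hpos : 0 < finrank (ZMod p) (LL T) := by omega
    have : c = 1 := by
      have h1 : c < 2 := by
        by_contra hcon
        rw [not_lt] at hcon
        have := Nat.mul_le_mul_left (finrank (ZMod p) (LL T)) hcon
        omega
      have h2 : c ≠ 0 := by
        rintro rfl
        omega
      omega
    subst this
    omega
  refine ⟨i, ?_, hdvd⟩
  rw [← finrank_LL T hT, ← h2i, mul_comm]

theorem coe_pow_restrict {T : Module.End (ZMod p) V} {U : Submodule (ZMod p) V}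
    (hU : ∀ v ∈ U, T v ∈ U) (k : ℕ) (x : U) : (((T.restrict hU) ^ k) x : V) = (T ^ k) x := by
  induction k generalizing x with
  | zero => simp
  | succ k ih =>
    rw [pow_succ, pow_succ, Module.End.mul_apply, Module.End.mul_apply, ih]
    rfl

theorem Reg.restrict {T : Module.End (ZMod p) V} {h : ℕ} (hr : Reg T h) {U : Submodule (ZMod p) V}
    (hU : ∀ v ∈ U, T v ∈ U) : Reg (T.restrict hU) h where
  pos := hr.pos
  cop := hr.cop
  pow_eq := by
    ext x
    rw [coe_pow_restrict, hr.pow_eq]
    rfl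
  fpf k hk v hv := by
    apply Subtype.ext
    refine hr.fpf k hk v ?_
    rw [← coe_pow_restrict hU, hv]

theorem symp_restrict (hB : Symp B) {U : Submodule (ZMod p) V}
    (hU : ∀ u ∈ U, (∀ w ∈ U, B u w = 0) → u = 0) : Symp (B.restrict U) where
  alt v := hB.alt v
  nd v hv := Subtype.ext (hU v v.2 fun w hw => hv ⟨w, hw⟩)

theorem irr_restrict {T : Module.End (ZMod p) V} {W : Submodule (ZMod p) V}
    (hW : ∀ v ∈ W, T v ∈ W)
    (hmin : ∀ W' ≤ W, (∀ v ∈ W', T v ∈ W') → W' = ⊥ ∨ W' = W) : Irr (T.restrict hW) := by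
  intro W' hW'
  rcases hmin (W'.map W.subtype) (Submodule.map_subtype_le _ _) (by
    rintro _ ⟨x, hx, rfl⟩
    exact ⟨_, hW' x hx, rfl⟩) with h | h
  · left
    apply Submodule.map_injective_of_injective W.subtype_injective
    rw [h, Submodule.map_bot]
  · right
    rw [eq_top_iff]
    intro x _
    have : (x : V) ∈ W'.map W.subtype := by rw [h]; exact x.2
    obtain ⟨y, hy, hyx⟩ := this
    have : y = x := Subtype.ext hyx
    exact this ▸ hy

theorem exists_min (T : Module.End (ZMod p) V) [Nontrivial V] :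
    ∃ W : Submodule (ZMod p) V, W ≠ ⊥ ∧ (∀ v ∈ W, T v ∈ W) ∧
      ∀ W' ≤ W, (∀ v ∈ W', T v ∈ W') → W' = ⊥ ∨ W' = W := by
  haveI : Module.Finite (ZMod p) V := Module.Finite.of_finite
  have hne : {W : Submodule (ZMod p) V | W ≠ ⊥ ∧ ∀ v ∈ W, T v ∈ W}.Nonempty :=
    ⟨⊤, top_ne_bot, fun _ _ => trivial⟩
  obtain ⟨W, hW, hmin⟩ := (wellFounded_lt (α := Submodule (ZMod p) V)).has_min _ hne
  refine ⟨W, hW.1, hW.2, fun W' hle hinv => ?_⟩
  by_contra hcon
  rw [not_or] at hcon
  exact hmin W' ⟨hcon.1, hinv⟩ (lt_of_le_of_ne hle hcon.2)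

theorem Reg.pow_mem {T : Module.End (ZMod p) V} {U : Submodule (ZMod p) V}
    (hU : ∀ v ∈ U, T v ∈ U) (k : ℕ) {v : V} (hv : v ∈ U) : (T ^ k) v ∈ U := by
  induction k with
  | zero => simpa
  | succ k ih =>
    rw [pow_succ', Module.End.mul_apply]
    exact hU _ ih

theorem Reg.isSemisimple {T : Module.End (ZMod p) V} {h : ℕ} (hr : Reg T h) : T.IsSemisimple := by
  have hcast : ((h : ℕ) : ZMod p) ≠ 0 := by
    intro h0
    rw [ZMod.natCast_eq_zero_iff] at h0
    have : p ∣ 1 := by
      have := Nat.dvd_gcd h0 (dvd_refl p)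
      rwa [hr.cop] at this
    exact (Fact.out : p.Prime).one_lt.ne' (Nat.dvd_one.1 this)
  have hsep := Polynomial.separable_X_pow_sub_C (F := ZMod p) (n := h) 1 hcast one_ne_zero
  apply Module.End.isSemisimple_of_squarefree_aeval_eq_zero hsep.squarefree
  simp [hr.pow_eq]

theorem orth_inv {T : Module.End (ZMod p) V} {h : ℕ} (hr : Reg T h)
    (hiso : ∀ u v, B (T u) (T v) = B u v) {W : Submodule (ZMod p) V} (hW : ∀ v ∈ W, T v ∈ W) :
    ∀ v ∈ B.orthogonal W, T v ∈ B.orthogonal W := by
  intro v hv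
  rw [LinearMap.BilinForm.mem_orthogonal_iff] at hv ⊢
  intro w hw
  have h1 : w = T ((T ^ (h - 1)) w) := by
    rw [← Module.End.mul_apply, ← pow_succ', Nat.sub_add_cancel hr.pos, hr.pow_eq]
    rfl
  change B w (T v) = 0
  rw [h1, hiso]
  exact hv _ (Reg.pow_mem hW _ hw)

theorem main {h : ℕ} (h2 : 2 < h) : ∀ (n : ℕ) {V : Type u} [AddCommGroup V] [Module (ZMod p) V]
    [Finite V] (B : LinearMap.BilinForm (ZMod p) V) (T : Module.End (ZMod p) V),
    Symp B → (∀ u v, B (T u) (T v) = B u v) → Reg T h → finrank (ZMod p) V = 2 * n →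
      (p : ZMod h) ^ n = 1 ∨ (p : ZMod h) ^ n = -1 := by
  intro n
  induction n using Nat.strong_induction_on with
  | _ n ih =>
  intro V _ _ _ B T hB hiso hr hdim
  rcases Nat.eq_zero_or_pos n with rfl | hn
  · left; simp
  haveI : Module.Finite (ZMod p) V := Module.Finite.of_finite
  haveI : Nontrivial V := Module.nontrivial_of_finrank_pos (R := ZMod p) (by omega)
  have combine : ∀ d, 0 < d → d ≤ n → ((p : ZMod h) ^ d = 1 ∨ (p : ZMod h) ^ d = -1) →
      ∀ U : Submodule (ZMod p) V, (∀ v ∈ U, T v ∈ U) → (∀ u ∈ U, (∀ w ∈ U, B u w = 0) → u = 0) →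
      finrank (ZMod p) U = 2 * (n - d) → (p : ZMod h) ^ n = 1 ∨ (p : ZMod h) ^ n = -1 := by
    intro d hd hdn hQ U hU hUnd hUdim
    have := ih (n - d) (by omega) (B.restrict U) (T.restrict hU) (symp_restrict hB hUnd)
      (fun u v => hiso u v) (hr.restrict hU) hUdim
    have e : (p : ZMod h) ^ n = (p : ZMod h) ^ d * (p : ZMod h) ^ (n - d) := by
      rw [← pow_add]; congr 1; omega
    rw [e]
    rcases hQ with h1 | h1 <;> rcases this with h3 | h3 <;> simp [h1, h3]
  obtain ⟨W, hW0, hWinv, hWmin⟩ := exists_min T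
  have hirr := irr_restrict hWinv hWmin
  have hregW := hr.restrict hWinv
  haveI : Nontrivial W := (Submodule.nontrivial_iff_ne_bot).2 hW0
  have hDpos : 0 < finrank (ZMod p) W := Module.finrank_pos
  have hnd := hB.nondeg
  have hrefl := hB.isRefl
  have horthdim := LinearMap.BilinForm.finrank_orthogonal hnd W
  have horthorth := LinearMap.BilinForm.orthogonal_orthogonal hnd hrefl W
  have hoinv := orth_inv hr hiso hWinv
  rcases hWmin (W ⊓ B.orthogonal W) inf_le_left (fun v hv => ⟨hWinv v hv.1, hoinv v hv.2⟩) with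
    hdisj | hle
  · -- nondegenerate case
    obtain ⟨d, hd, hdvd⟩ := exists_of_nondeg (B := B.restrict W) hirr hregW
      (symp_restrict hB (fun u hu huw => by
        have : u ∈ W ⊓ B.orthogonal W := Submodule.mem_inf.2 ⟨hu, by
          rw [LinearMap.BilinForm.mem_orthogonal_iff]
          intro w hw
          change B w u = 0
          rw [hB.neg, huw w hw, neg_zero]⟩
        rw [hdisj] at this
        simpa using this)) (fun u v => hiso u v) h2
    refine combine d (by omega) (by
      have := Submodule.finrank_le W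
      omega) (Or.inr ?_) (B.orthogonal W) hoinv ?_ (by omega)
    · have : ((p ^ d + 1 : ℕ) : ZMod h) = 0 := (ZMod.natCast_eq_zero_iff _ _).2 hdvd
      push_cast at this
      exact eq_neg_of_add_eq_zero_left this
    · intro u hu huw
      have : u ∈ W ⊓ B.orthogonal W := Submodule.mem_inf.2 ⟨by
        rw [← horthorth, LinearMap.BilinForm.mem_orthogonal_iff]
        intro w hw
        change B w u = 0
        rw [hB.neg, huw w hw, neg_zero], hu⟩
      rw [hdisj] at this
      simpa using this
  · -- isotropic case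
    have hWle : W ≤ B.orthogonal W := fun v hv => by
      rw [← hle] at hv
      exact hv.2
    have hdvd := dvd_of_irr hirr hregW
    obtain ⟨C, hC, hcompl⟩ := Module.End.isSemisimple_iff.1 hr.isSemisimple W
      (Module.End.mem_invtSubmodule _ |>.2 fun v hv => hWinv v hv)
    have hCinv : ∀ v ∈ C, T v ∈ C := fun v hv =>
      ((Module.End.mem_invtSubmodule _).1 hC) hv
    have hsup : W ⊔ (B.orthogonal W ⊓ C) = B.orthogonal W := by
      have := sup_inf_assoc_of_le C hWle
      rw [inf_comm (B.orthogonal W) C, ← this, hcompl.sup_eq_top, top_inf_eq]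
    have hinf : W ⊓ (B.orthogonal W ⊓ C) = ⊥ := by
      rw [eq_bot_iff, ← hcompl.inf_eq_bot]
      exact inf_le_inf_left _ inf_le_right
    have hcard := Submodule.finrank_sup_add_finrank_inf_eq W (B.orthogonal W ⊓ C)
    rw [hsup, hinf, finrank_bot] at hcard
    have hDle := Submodule.finrank_le W
    have hDle2 := Submodule.finrank_mono hWle
    refine combine (finrank (ZMod p) W) hDpos (by omega) (Or.inl ?_) (B.orthogonal W ⊓ C)
      (fun v hv => ⟨hoinv v hv.1, hCinv v hv.2⟩) ?_ (by omega)
    · have h1 : 1 ≤ p ^ finrank (ZMod p) W := Nat.one_le_pow _ _ (Fact.out : p.Prime).pos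
      have : ((p ^ finrank (ZMod p) W - 1 : ℕ) : ZMod h) = 0 :=
        (ZMod.natCast_eq_zero_iff _ _).2 hdvd
      rw [Nat.cast_sub h1] at this
      push_cast at this
      exact sub_eq_zero.1 this
    · intro u hu huw
      have : u ∈ W ⊓ C := Submodule.mem_inf.2 ⟨by
        rw [← horthorth, LinearMap.BilinForm.mem_orthogonal_iff]
        intro x hx
        rw [← hsup] at hx
        obtain ⟨w, hw, y, hy, rfl⟩ := Submodule.mem_sup.1 hx
        change B (w + y) u = 0
        have h1 := (LinearMap.BilinForm.mem_orthogonal_iff.1 hu.1) w hw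
        change B w u = 0 at h1
        rw [map_add, LinearMap.add_apply, h1, zero_add, hB.neg, huw y hy, neg_zero], hu.2⟩
      rw [hcompl.inf_eq_bot] at this
      simpa using this

/-- The final form of the linear statement. -/
theorem final {B : LinearMap.BilinForm (ZMod p) V} {T : Module.End (ZMod p) V} {h n : ℕ}
    (hB : Symp B) (hiso : ∀ u v, B (T u) (T v) = B u v) (hr : Reg T h)
    (hdim : finrank (ZMod p) V = 2 * n) : h ∣ p ^ n + 1 ∨ h ∣ p ^ n - 1 := by
  have hp := (Fact.out : p.Prime)
  have h1 : 1 ≤ p ^ n := Nat.one_le_pow _ _ hp.pos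
  by_cases h2 : 2 < h
  · rcases main h2 n B T hB hiso hr hdim with h3 | h3
    · right
      rw [← ZMod.natCast_eq_zero_iff, Nat.cast_sub h1]
      push_cast
      exact sub_eq_zero.2 h3
    · left
      rw [← ZMod.natCast_eq_zero_iff]
      push_cast
      exact eq_neg_iff_add_eq_zero.1 h3
  · have hpos := hr.pos
    have hc := hr.cop
    interval_cases h
    · exact Or.inl (one_dvd _)
    · right
      have hodd : Odd p := by
        rcases hp.eq_two_or_odd' with rfl | h
        · simp at hc
        · exact h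
      exact (Nat.Odd.sub_odd (hodd.pow) odd_one).two_dvd

end Form

/-- The additive form of the linear statement (with a module structure). -/
theorem final_add' (B : V →+ V →+ ZMod p) (T : V →+ V) {h n : ℕ}
    (halt : ∀ v, B v v = 0) (hnd : ∀ v, (∀ w, B v w = 0) → v = 0)
    (hiso : ∀ u v, B (T u) (T v) = B u v) (hpos : 0 < h) (hcop : h.Coprime p)
    (hTh : ∀ v, T^[h] v = v) (hfpf : ∀ k, ¬ h ∣ k → ∀ v, T^[k] v = v → v = 0)
    (hcard : Nat.card V = p ^ (2 * n)) : h ∣ p ^ n + 1 ∨ h ∣ p ^ n - 1 := by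
  let TL : Module.End (ZMod p) V := T.toZModLinearMap p
  have hsmul : ∀ (f : V →+ ZMod p) (c : ZMod p) (x : V), f (c • x) = c • f x :=
    fun f c x => (f.toZModLinearMap p).map_smul c x
  let BL : LinearMap.BilinForm (ZMod p) V := LinearMap.mk₂ (ZMod p) (fun u v => B u v)
    (fun x y v => by simp) (fun c x v => by
      exact hsmul (B.flip v) c x)
    (fun x y v => by simp) (fun c x v => hsmul (B x) c v)
  have hBL : ∀ u v, BL u v = B u v := fun _ _ => rfl
  have hTL : ∀ v, TL v = T v := fun _ => rfl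
  have hpow : ∀ k v, (TL ^ k) v = T^[k] v := fun k v => by
    rw [Module.End.pow_apply]
    rfl
  have hp := (Fact.out : p.Prime)
  apply final (B := BL) (T := TL)
  · exact ⟨fun v => halt v, fun v hv => hnd v hv⟩
  · exact fun u v => hiso u v
  · refine ⟨hpos, hcop, ?_, ?_⟩
    · ext v
      rw [hpow, hTh]
      rfl
    · intro k hk v hv
      rw [hpow] at hv
      exact hfpf k hk v hv
  · have h1 := Module.natCard_eq_pow_finrank (K := ZMod p) (V := V)
    rw [hcard, Nat.card_zmod] at h1
    exact (Nat.pow_right_injective hp.two_le h1).symm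

/-- The additive form of the linear statement. -/
theorem final_add {V : Type u} [AddCommGroup V] [Finite V] (hpv : ∀ v : V, p • v = 0)
    (B : V →+ V →+ ZMod p) (T : V →+ V) {h n : ℕ}
    (halt : ∀ v, B v v = 0) (hnd : ∀ v, (∀ w, B v w = 0) → v = 0)
    (hiso : ∀ u v, B (T u) (T v) = B u v) (hpos : 0 < h) (hcop : h.Coprime p)
    (hTh : ∀ v, T^[h] v = v) (hfpf : ∀ k, ¬ h ∣ k → ∀ v, T^[k] v = v → v = 0)
    (hcard : Nat.card V = p ^ (2 * n)) : h ∣ p ^ n + 1 ∨ h ∣ p ^ n - 1 := by
  letI : Module (ZMod p) V := AddCommGroup.zmodModule hpv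
  exact final_add' B T halt hnd hiso hpos hcop hTh hfpf hcard

end Cfsg.Agent.Lib.ExtraFix.Linear
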